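import Cfsg.Agent.INV.CG.Model
import Cfsg.Agent.CHEV.Inv2G2
import Cfsg.Agent.S1055
import Cfsg.Agent.Eqns.CL_Chev_PE_ev

/-!
# CG/G0 : the group `A0 = G₂(4)`: root elements and relations

Positive roots `a, c, d` (short), `b, e, f` (long); `P = {pp b c d e f}`, `U = X_a P`.
-/

set_option autoImplicit false
open Subgroup Cfsg.Lie CL.Chev

namespace CL.CG

abbrev A0 : Type := ↥(chevG2.group F4)
abbrev SG : StData (rootSys chevG2) F4 A0 := stG chevG2 F4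

instance : Finite A0 := inferInstance
instance : IsSimpleGroup A0 := (Cfsg.Agent.S1055.result ⟨ω, by decide, by decide⟩).1

def xx (r : ℕ) (t : F4) : A0 := xN SG.x r t
def xa (t : F4) : A0 := xx 7 t
def xb (t : F4) : A0 := xx 6 t
def xc (t : F4) : A0 := xx 8 t
def xd (t : F4) : A0 := xx 9 t
def xe (t : F4) : A0 := xx 10 t
def xf (t : F4) : A0 := xx 11 t
def ra : Rt chevG2 := ⟨7, by decide⟩
def rb : Rt chevG2 := ⟨6, by decide⟩
def na : A0 := SG.n ra 1
def nb : A0 := SG.n rb 1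
def ha : A0 := SG.h ra ω
def hb : A0 := SG.h rb ω
/-- the element of order 3 centralising `⟨X_a, n_a⟩` -/
def hh : A0 := ha * hb ^ 2
def pp (b c d e f : F4) : A0 := xb b * xc c * xd d * xe e * xf f

theorem xx_zero (r : ℕ) : xx r 0 = 1 := xN_zero r
theorem xx_add (r : ℕ) (t u : F4) : xx r (t + u) = xx r t * xx r u := by
  unfold xx xN; split_ifs
  exacts [SG.x_add _ t u, (one_mul _).symm]
theorem xx_sq (r : ℕ) (t : F4) : xx r t * xx r t = 1 := by rw [← xx_add, f4_add_self, xx_zero]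
theorem xx_inv (r : ℕ) (t : F4) : (xx r t)⁻¹ = xx r t := inv_eq_of_mul_eq_one_right (xx_sq r t)

/-- polynomial word identities; close `h` by `decide +kernel` -/
theorem weq (xs : List F4) (hx : xs.length ≤ 12) (w₁ w₂ : List (ℕ × PE))
    (h : Mv.weq (Good.C chevG2) chevG2.nroots chevG2.rank 2 w₁ w₂ = true) :
    (w₁.map fun a => xx a.1 (a.2.ev xs)).prod = (w₂.map fun a => xx a.1 (a.2.ev xs)).prod := by
  have := evG_eq_of_weqM (D := chevG2) (CharP.cast_eq_zero F4 2) xs hx h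
  simpa only [evG, List.map_map, Function.comp_def, xx] using this

theorem na_eq : na = xx 7 1 * xx 4 1 * xx 7 1 := rfl
theorem nb_eq : nb = xx 6 1 * xx 5 1 * xx 6 1 := rfl

theorem xa_zero : xa 0 = 1 := xx_zero _
theorem xa_add (t u : F4) : xa (t + u) = xa t * xa u := xx_add _ t u
theorem xa_sq (t : F4) : xa t * xa t = 1 := xx_sq _ t
theorem xa_inv (t : F4) : (xa t)⁻¹ = xa t := xx_inv _ t
theorem pp_zero : pp 0 0 0 0 0 = 1 := by simp [pp, xb, xc, xd, xe, xf, xx_zero]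
theorem xb_eq (t : F4) : xb t = pp t 0 0 0 0 := by simp [pp, xc, xd, xe, xf, xx_zero]
theorem xc_eq (t : F4) : xc t = pp 0 t 0 0 0 := by simp [pp, xb, xd, xe, xf, xx_zero]
theorem xd_eq (t : F4) : xd t = pp 0 0 t 0 0 := by simp [pp, xb, xc, xe, xf, xx_zero]
theorem xe_eq (t : F4) : xe t = pp 0 0 0 t 0 := by simp [pp, xb, xc, xd, xf, xx_zero]
theorem xf_eq (t : F4) : xf t = pp 0 0 0 0 t := by simp [pp, xb, xc, xd, xe, xx_zero]

theorem pp_mul (b c d e f b' c' d' e' f' : F4) : pp b c d e f * pp b' c' d' e' f' =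
    pp (b + b') (c + c') (d + d') (e + e') (f + f' + e * b' + d * c') := by
  have := weq [b, c, d, e, f, b', c', d', e', f'] (by simp)
    [(6, .var 0), (8, .var 1), (9, .var 2), (10, .var 3), (11, .var 4),
      (6, .var 5), (8, .var 6), (9, .var 7), (10, .var 8), (11, .var 9)]
    [(6, .var 0 + .var 5), (8, .var 1 + .var 6), (9, .var 2 + .var 7), (10, .var 3 + .var 8),
      (11, .var 4 + .var 9 + .var 3 * .var 5 + .var 2 * .var 6)] (by decide +kernel)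
  simpa [pp, xb, xc, xd, xe, xf, mul_assoc] using this

theorem pp_inv (b c d e f : F4) : (pp b c d e f)⁻¹ = pp b c d e (f + e * b + d * c) := by
  rw [inv_eq_iff_mul_eq_one, pp_mul, ← pp_zero]
  simp only [f4_add_self]; congr 1
  linear_combination (f + e * b + d * c) * f4_two

theorem xa_pp (t b c d e f : F4) : xa t * pp b c d e f * (xa t)⁻¹ =
    pp b (c + t * b) (d + t ^ 2 * b) (e + t ^ 3 * b + t ^ 2 * c + t * d)
      (f + t ^ 3 * b ^ 2 + t * c ^ 2 + t ^ 2 * b * c) := by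
  have := weq [t, b, c, d, e, f] (by simp)
    [(7, .var 0), (6, .var 1), (8, .var 2), (9, .var 3), (10, .var 4), (11, .var 5), (7, .var 0)]
    [(6, .var 1), (8, .var 2 + .var 0 * .var 1), (9, .var 3 + .var 0 ^ 2 * .var 1),
      (10, .var 4 + .var 0 ^ 3 * .var 1 + .var 0 ^ 2 * .var 2 + .var 0 * .var 3),
      (11, .var 5 + .var 0 ^ 3 * .var 1 ^ 2 + .var 0 * .var 2 ^ 2 + .var 0 ^ 2 * .var 1 * .var 2)]
    (by decide +kernel)
  rw [xa_inv]
  simpa [pp, xa, xb, xc, xd, xe, xf, mul_assoc] using this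

theorem na_sq : na * na = 1 := by
  have := weq [] (by simp) [(7, .c 1), (4, .c 1), (7, .c 1), (7, .c 1), (4, .c 1), (7, .c 1)] [] (by decide +kernel)
  simpa [na_eq, mul_assoc, PE.ev] using this
theorem nb_sq : nb * nb = 1 := by
  have := weq [] (by simp) [(6, .c 1), (5, .c 1), (6, .c 1), (6, .c 1), (5, .c 1), (6, .c 1)] [] (by decide +kernel)
  simpa [nb_eq, mul_assoc, PE.ev] using this
theorem na_inv : na⁻¹ = na := inv_eq_of_mul_eq_one_right na_sq
theorem nb_inv : nb⁻¹ = nb := inv_eq_of_mul_eq_one_right nb_sq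

theorem na_xx {r s : ℕ} (h : (r, s) ∈ [(7, 4), (4, 7), (6, 10), (10, 6), (8, 9), (9, 8), (11, 11)]) (t : F4) :
    na * xx r t * na⁻¹ = xx s t := by
  have := weq [t] (by simp) [(7, .c 1), (4, .c 1), (7, .c 1), (r, .var 0)]
    [(s, .var 0), (7, .c 1), (4, .c 1), (7, .c 1)] ((by decide +kernel : ∀ p ∈ [(7, 4), (4, 7), (6, 10), (10, 6),
      (8, 9), (9, 8), (11, 11)], Mv.weq (Good.C chevG2) chevG2.nroots chevG2.rank 2 [(7, .c 1), (4, .c 1), (7, .c 1),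
      (p.1, .var 0)] [(p.2, .var 0), (7, .c 1), (4, .c 1), (7, .c 1)] = true) _ h)
  rw [mul_inv_eq_iff_eq_mul]
  simpa [na_eq, mul_assoc, PE.ev] using this

theorem nb_xx {r s : ℕ} (h : (r, s) ∈ [(6, 5), (5, 6), (7, 8), (8, 7), (9, 9), (10, 11), (11, 10)]) (t : F4) :
    nb * xx r t * nb⁻¹ = xx s t := by
  have := weq [t] (by simp) [(6, .c 1), (5, .c 1), (6, .c 1), (r, .var 0)]
    [(s, .var 0), (6, .c 1), (5, .c 1), (6, .c 1)] ((by decide +kernel : ∀ p ∈ [(6, 5), (5, 6), (7, 8), (8, 7),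
      (9, 9), (10, 11), (11, 10)], Mv.weq (Good.C chevG2) chevG2.nroots chevG2.rank 2 [(6, .c 1), (5, .c 1), (6, .c 1),
      (p.1, .var 0)] [(p.2, .var 0), (6, .c 1), (5, .c 1), (6, .c 1)] = true) _ h)
  rw [mul_inv_eq_iff_eq_mul]
  simpa [nb_eq, mul_assoc, PE.ev] using this

theorem nb_xa (t : F4) : nb * xa t * nb⁻¹ = xc t := nb_xx (by decide) t
theorem nb_xc (t : F4) : nb * xc t * nb⁻¹ = xa t := nb_xx (by decide) t
theorem nb_xd (t : F4) : nb * xd t * nb⁻¹ = xd t := nb_xx (by decide) t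
theorem nb_xe (t : F4) : nb * xe t * nb⁻¹ = xf t := nb_xx (by decide) t
theorem nb_xf (t : F4) : nb * xf t * nb⁻¹ = xe t := nb_xx (by decide) t

theorem na_pp (b c d e f : F4) : na * pp b c d e f * na⁻¹ = pp e d c b (f + b * e + c * d) := by
  have h : na * pp b c d e f * na⁻¹ = (na * xx 6 b * na⁻¹) * (na * xx 8 c * na⁻¹) * (na * xx 9 d * na⁻¹) *
    (na * xx 10 e * na⁻¹) * (na * xx 11 f * na⁻¹) := by simp only [pp, xb, xc, xd, xe, xf]; group
  rw [h, na_xx (s := 10) (by decide), na_xx (s := 9) (by decide), na_xx (s := 8) (by decide),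
    na_xx (s := 6) (by decide), na_xx (s := 11) (by decide)]
  change xe b * xd c * xc d * xb e * xf f = _
  rw [xe_eq, xd_eq, xc_eq, xb_eq, xf_eq, pp_mul, pp_mul, pp_mul, pp_mul]
  congr 1 <;> ring

theorem h_xx (i : Rt chevG2) (r : Rt chevG2) {k : F4} (h : ω ^ (rootSys chevG2).pair i r = k) (t : F4) :
    SG.h i ω * xx r t * (SG.h i ω)⁻¹ = xx r (k * t) := by
  have := SG.h_conj i r (t := ω) (by decide) t
  rwa [← xN_val SG.x, ← xN_val SG.x, h] at this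

theorem ha_xa (t : F4) : ha * xa t * ha⁻¹ = xa (ω ^ 2 * t) := h_xx ra ra (by decide +kernel) t
theorem hb_xa (t : F4) : hb * xa t * hb⁻¹ = xa (ω ^ 2 * t) := h_xx rb ra (by decide +kernel) t

theorem ha_pp (b c d e f : F4) : ha * pp b c d e f * ha⁻¹ = pp b (ω ^ 2 * c) (ω * d) e f := by
  have h : ha * pp b c d e f * ha⁻¹ = (ha * xx 6 b * ha⁻¹) * (ha * xx 8 c * ha⁻¹) * (ha * xx 9 d * ha⁻¹) *
    (ha * xx 10 e * ha⁻¹) * (ha * xx 11 f * ha⁻¹) := by simp only [pp, xb, xc, xd, xe, xf]; group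
  have h1 := h_xx ra ⟨6, by decide⟩ (k := 1) (by decide +kernel) b
  have h2 := h_xx ra ⟨8, by decide⟩ (k := ω ^ 2) (by decide +kernel) c
  have h3 := h_xx ra ⟨9, by decide⟩ (k := ω) (by decide +kernel) d
  have h4 := h_xx ra ⟨10, by decide⟩ (k := 1) (by decide +kernel) e
  have h5 := h_xx ra ⟨11, by decide⟩ (k := 1) (by decide +kernel) f
  simp only [one_mul] at h1 h4 h5
  rw [h, ha, h1, h2, h3, h4, h5]; rfl

theorem hb_pp (b c d e f : F4) : hb * pp b c d e f * hb⁻¹ = pp (ω ^ 2 * b) (ω * c) d (ω ^ 2 * e) (ω * f) := by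
  have h : hb * pp b c d e f * hb⁻¹ = (hb * xx 6 b * hb⁻¹) * (hb * xx 8 c * hb⁻¹) * (hb * xx 9 d * hb⁻¹) *
    (hb * xx 10 e * hb⁻¹) * (hb * xx 11 f * hb⁻¹) := by simp only [pp, xb, xc, xd, xe, xf]; group
  have h1 := h_xx rb ⟨6, by decide⟩ (k := ω ^ 2) (by decide +kernel) b
  have h2 := h_xx rb ⟨8, by decide⟩ (k := ω) (by decide +kernel) c
  have h3 := h_xx rb ⟨9, by decide⟩ (k := 1) (by decide +kernel) d
  have h4 := h_xx rb ⟨10, by decide⟩ (k := ω ^ 2) (by decide +kernel) e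
  have h5 := h_xx rb ⟨11, by decide⟩ (k := ω) (by decide +kernel) f
  simp only [one_mul] at h3
  rw [h, hb, h1, h2, h3, h4, h5]; rfl

theorem ha_cube : ha ^ 3 = 1 := by
  rw [pow_three, ha, stG_R3 _ _ _ (by decide) (by decide), stG_R3 _ _ _ (by decide) (by decide)]
  exact SG.h_one ra
theorem hb_cube : hb ^ 3 = 1 := by
  rw [pow_three, hb, stG_R3 _ _ _ (by decide) (by decide), stG_R3 _ _ _ (by decide) (by decide)]
  exact SG.h_one rb

theorem h_n (i r : Rt chevG2) {k : F4} (h : ω ^ (rootSys chevG2).pair i r = k) (t : F4) :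
    SG.h i ω * SG.n r t * (SG.h i ω)⁻¹ = SG.n r (k * t) := h ▸ SG.h_conj_n i r (by decide) t

theorem ha_nb : ha * nb * ha⁻¹ = nb := h_n ra rb (k := 1) (by decide +kernel) 1
theorem ha_na : ha * na * ha⁻¹ = ha ^ 2 * na := by
  refine (h_n ra ra (k := ω ^ 2) (by decide +kernel) 1).trans ?_
  rw [SG.n_eq_h_mul, pow_two ha, ha, stG_R3 _ _ _ (by decide) (by decide)]; rfl
theorem hb_nb : hb * nb * hb⁻¹ = hb ^ 2 * nb := by
  refine (h_n rb rb (k := ω ^ 2) (by decide +kernel) 1).trans ?_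
  rw [SG.n_eq_h_mul, pow_two hb, hb, stG_R3 _ _ _ (by decide) (by decide)]; rfl
theorem na_ha : na * ha * na⁻¹ = ha⁻¹ := by
  have h := ha_na
  rw [pow_two, mul_assoc, mul_assoc, mul_right_inj] at h
  calc na * ha * na⁻¹ = (na * ha⁻¹ * na⁻¹)⁻¹ := by group
    _ = _ := by rw [h]; group
theorem nb_hb : nb * hb * nb⁻¹ = hb⁻¹ := by
  have h := hb_nb
  rw [pow_two, mul_assoc, mul_assoc, mul_right_inj] at h
  calc nb * hb * nb⁻¹ = (nb * hb⁻¹ * nb⁻¹)⁻¹ := by group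
    _ = _ := by rw [h]; group
theorem ha_hb : ha * hb = hb * ha := by
  have h1 := h_n ra rb (k := 1) (by decide +kernel) ω
  have h2 := h_n ra rb (k := 1) (by decide +kernel) (-1)
  rw [one_mul] at h1 h2
  rw [← mul_inv_eq_iff_eq_mul]
  change SG.h ra ω * (SG.n rb ω * SG.n rb (-1)) * (SG.h ra ω)⁻¹ = SG.n rb ω * SG.n rb (-1)
  conv_rhs => rw [← h1, ← h2]
  group
theorem hh_cube : hh ^ 3 = 1 := by
  rw [hh, (Commute.pow_right ha_hb 2).mul_pow, ha_cube, ← pow_mul, mul_comm, pow_mul, hb_cube]; simp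
theorem hh_conj (g : A0) : hh * g * hh⁻¹ = ha * (hb * (hb * g * hb⁻¹) * hb⁻¹) * ha⁻¹ := by
  rw [hh, pow_two]; group
theorem hh_xa (t : F4) : hh * xa t * hh⁻¹ = xa t := by
  rw [hh_conj, hb_xa, hb_xa, ha_xa]; congr 1; revert t; decide
theorem hh_pp (b c d e f : F4) :
    hh * pp b c d e f * hh⁻¹ = pp (ω * b) (ω * c) (ω * d) (ω * e) (ω ^ 2 * f) := by
  rw [hh_conj, hb_pp, hb_pp, ha_pp]
  have : ∀ x : F4, ω ^ 2 * (ω ^ 2 * x) = ω * x ∧ ω ^ 2 * (ω * (ω * x)) = ω * x ∧ ω * (ω * x) = ω ^ 2 * x := by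
    decide
  rw [(this b).1, (this c).2.1, (this e).1, (this f).2.2]
theorem hh_na : hh * na * hh⁻¹ = na := by
  rw [hh_conj, hb, na, h_n rb ra (k := ω ^ 2) (by decide +kernel), h_n rb ra (k := ω ^ 2) (by decide +kernel),
    ha, h_n ra ra (k := ω ^ 2) (by decide +kernel)]; rfl

/-- the `SL₂` relations -/
theorem na_xa_na (t : F4) : na * xa t * na⁻¹ = xx 4 t := na_xx (by decide) t
theorem nb_xb_nb (t : F4) : nb * xb t * nb⁻¹ = xx 5 t := nb_xx (by decide) t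
theorem sl2a : xa ω * xx 4 (ω ^ 2) * xa ω = ha * na ∧ xa (ω ^ 2) * xx 4 ω * xa (ω ^ 2) = ha ^ 2 * na := by
  refine ⟨SG.n_eq_h_mul ra ω, (SG.n_eq_h_mul ra (ω ^ 2)).trans ?_⟩
  rw [pow_two ha, ha, stG_R3 _ _ _ (by decide) (by decide)]; rfl
theorem sl2b : xb ω * xx 5 (ω ^ 2) * xb ω = hb * nb ∧ xb (ω ^ 2) * xx 5 ω * xb (ω ^ 2) = hb ^ 2 * nb := by
  refine ⟨SG.n_eq_h_mul rb ω, (SG.n_eq_h_mul rb (ω ^ 2)).trans ?_⟩
  rw [pow_two hb, hb, stG_R3 _ _ _ (by decide) (by decide)]; rfl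

/-- uniqueness of the normal form in `U` -/
theorem uu_inj {a b c d e f a' b' c' d' e' f' : F4} (h : xa a * pp b c d e f = xa a' * pp b' c' d' e' f') :
    a = a' ∧ b = b' ∧ c = c' ∧ d = d' ∧ e = e' ∧ f = f' := by
  have := coords_inj (S := SG) stG_good (L := [7, 6, 8, 9, 10, 11]) (by decide +kernel) (by decide +kernel)
    (by decide) (w := [(7, a), (6, b), (8, c), (9, d), (10, e), (11, f)])
    (w' := [(7, a'), (6, b'), (8, c'), (9, d'), (10, e'), (11, f')]) rfl rfl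
    (by simpa [pp, xa, xb, xc, xd, xe, xf, xx, mul_assoc] using h)
  simpa using this

theorem pp_inj {b c d e f b' c' d' e' f' : F4} (h : pp b c d e f = pp b' c' d' e' f') :
    b = b' ∧ c = c' ∧ d = d' ∧ e = e' ∧ f = f' := (uu_inj (a := 0) (a' := 0) (by rw [h])).2

theorem xf_add (t u : F4) : xf (t + u) = xf t * xf u := xx_add _ t u
theorem xf_zero : xf 0 = 1 := xx_zero _
theorem xf_inj {t u : F4} (h : xf t = xf u) : t = u := (pp_inj ((xf_eq t).symm.trans (h.trans (xf_eq u)))).2.2.2.2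
theorem xf_eq_one {t : F4} : xf t = 1 ↔ t = 0 := ⟨fun h => xf_inj (h.trans xf_zero.symm), fun h => h ▸ xf_zero⟩
theorem pp_xf (b c d e f t : F4) : pp b c d e f * xf t = pp b c d e (f + t) := by simp [xf_eq, pp_mul]
theorem xf_pp (b c d e f t : F4) : xf t * pp b c d e f = pp b c d e (f + t) := by simp [xf_eq, pp_mul, add_comm]
theorem xa_xf (t u : F4) : xa t * xf u = xf u * xa t := by
  rw [← mul_inv_eq_iff_eq_mul, xf_eq, xa_pp]; simp
theorem na_xf (u : F4) : na * xf u = xf u * na := by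
  rw [← mul_inv_eq_iff_eq_mul, xf_eq, na_pp]; simp

/-- `O₂(C(z))` -/
def sP : Subgroup A0 where
  carrier := {g | ∃ b c d e f, g = pp b c d e f}
  one_mem' := ⟨0, 0, 0, 0, 0, pp_zero.symm⟩
  mul_mem' := by rintro _ _ ⟨b, c, d, e, f, rfl⟩ ⟨b', c', d', e', f', rfl⟩; exact ⟨_, _, _, _, _, pp_mul ..⟩
  inv_mem' := by rintro _ ⟨b, c, d, e, f, rfl⟩; exact ⟨_, _, _, _, _, pp_inv ..⟩

/-- the centre of `U` -/
def sZ : Subgroup A0 where
  carrier := {g | ∃ f, g = xf f}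
  one_mem' := ⟨0, xf_zero.symm⟩
  mul_mem' := by rintro _ _ ⟨f, rfl⟩ ⟨f', rfl⟩; exact ⟨_, (xf_add ..).symm⟩
  inv_mem' := by rintro _ ⟨f, rfl⟩; exact ⟨_, xx_inv ..⟩

/-- the Sylow 2-subgroup -/
def sU : Subgroup A0 where
  carrier := {g | ∃ a b c d e f, g = xa a * pp b c d e f}
  one_mem' := ⟨0, 0, 0, 0, 0, 0, by rw [xa_zero, pp_zero, one_mul]⟩
  mul_mem' := by
    rintro _ _ ⟨a, b, c, d, e, f, rfl⟩ ⟨a', b', c', d', e', f', rfl⟩
    have h : xa a * pp b c d e f * (xa a' * pp b' c' d' e' f') =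
        xa (a + a') * (xa a' * pp b c d e f * (xa a')⁻¹ * pp b' c' d' e' f') := by
      rw [xa_add, xa_inv]
      simp only [mul_assoc, ← mul_assoc (xa a') (xa a'), xa_sq, one_mul]
    rw [h, xa_pp, pp_mul]
    exact ⟨_, _, _, _, _, _, rfl⟩
  inv_mem' := by
    rintro _ ⟨a, b, c, d, e, f, rfl⟩
    have h : (xa a * pp b c d e f)⁻¹ = xa a * (xa a * (pp b c d e f)⁻¹ * (xa a)⁻¹) := by
      rw [mul_inv_rev]
      simp only [← mul_assoc, xa_sq, one_mul]
    rw [h, pp_inv, xa_pp]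
    exact ⟨_, _, _, _, _, _, rfl⟩

theorem mem_sP {g : A0} : g ∈ sP ↔ ∃ b c d e f, g = pp b c d e f := Iff.rfl
theorem mem_sZ {g : A0} : g ∈ sZ ↔ ∃ f, g = xf f := Iff.rfl
theorem mem_sU {g : A0} : g ∈ sU ↔ ∃ a b c d e f, g = xa a * pp b c d e f := Iff.rfl
theorem pp_mem (b c d e f : F4) : pp b c d e f ∈ sP := ⟨b, c, d, e, f, rfl⟩
theorem xf_mem (f : F4) : xf f ∈ sZ := ⟨f, rfl⟩
theorem xa_mem (a : F4) : xa a ∈ sU := ⟨a, 0, 0, 0, 0, 0, by rw [pp_zero, mul_one]⟩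
theorem sZ_le : sZ ≤ sP := by rintro _ ⟨f, rfl⟩; exact xf_eq f ▸ pp_mem ..
theorem sP_le : sP ≤ sU := by
  rintro _ ⟨b, c, d, e, f, rfl⟩; exact ⟨0, b, c, d, e, f, by rw [xa_zero, one_mul]⟩

/-- `C(z) = P : SL₂(4)` -/
def PL : Subgroup A0 := sU ⊔ zpowers na
/-- `2⁴ : SL₂(4)`, the derived group of `C(x_d(1))` -/
def sM : Subgroup A0 := closure ({g | ∃ b e f, g = pp b 0 0 e f} ∪ {nb})

theorem sU_le : sU ≤ PL := le_sup_left
theorem na_mem : na ∈ PL := (le_sup_right : _ ≤ PL) (mem_zpowers na)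
theorem xa_PL (a : F4) : xa a ∈ PL := sU_le (xa_mem a)
theorem pp_PL (b c d e f : F4) : pp b c d e f ∈ PL := sU_le (sP_le (pp_mem ..))
theorem pp_sM (b e f : F4) : pp b 0 0 e f ∈ sM := subset_closure (.inl ⟨b, e, f, rfl⟩)
theorem nb_mem : nb ∈ sM := subset_closure (.inr rfl)
theorem PL_le {H : Subgroup A0} (h1 : ∀ a, xa a ∈ H) (h2 : ∀ b c d e f, pp b c d e f ∈ H) (h3 : na ∈ H) :
    PL ≤ H := sup_le (by rintro _ ⟨a, b, c, d, e, f, rfl⟩; exact mul_mem (h1 a) (h2 ..)) (by simpa using h3)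
theorem sM_le {H : Subgroup A0} (h2 : ∀ b e f, pp b 0 0 e f ∈ H) (h3 : nb ∈ H) : sM ≤ H :=
  (closure_le _).2 (by rintro _ (⟨b, e, f, rfl⟩ | rfl); exacts [h2 .., h3])
theorem PL_xf {g : A0} (hg : g ∈ PL) (t : F4) : g * xf t = xf t * g :=
  mem_centralizer_singleton_iff.1 (PL_le (H := centralizer {xf t})
    (fun a => mem_centralizer_singleton_iff.2 (xa_xf a t))
    (fun b c d e f => mem_centralizer_singleton_iff.2 (by rw [pp_xf, xf_pp]))
    (mem_centralizer_singleton_iff.2 (na_xf t)) hg)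
theorem PL_sP {g : A0} (hg : g ∈ PL) : g ∈ normalizer (sP : Set A0) := by
  refine PL_le (fun a => mem_normalizer_fintype ?_) (fun b c d e f => le_normalizer (pp_mem ..))
    (mem_normalizer_fintype ?_) hg
  · rintro _ ⟨b, c, d, e, f, rfl⟩; rw [xa_pp]; exact pp_mem ..
  · rintro _ ⟨b, c, d, e, f, rfl⟩; rw [na_pp]; exact pp_mem ..
theorem sM_xd {g : A0} (hg : g ∈ sM) (t : F4) : g * xd t = xd t * g :=
  mem_centralizer_singleton_iff.1 (sM_le (H := centralizer {xd t})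
    (fun b e f => mem_centralizer_singleton_iff.2 (by simp [xd_eq, pp_mul]))
    (mem_centralizer_singleton_iff.2 (mul_inv_eq_iff_eq_mul.1 (nb_xd t))) hg)

/-- long root involutions -/
def Long (g : A0) : Prop := ∃ y, y * g * y⁻¹ = xf 1
/-- short root involutions -/
def Short (g : A0) : Prop := ∃ y, y * g * y⁻¹ = xd 1

/-- the Frobenius automorphism of `F4` -/
def frob4 : F4 ≃+* F4 where
  toFun t := t ^ 2
  invFun t := t ^ 2
  left_inv := by intro t; revert t; decide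
  right_inv := by intro t; revert t; decide
  map_mul' := by decide
  map_add' := by decide

/-- the field automorphism -/
noncomputable def φ0 : MulAut A0 := fieldAut chevG2 frob4

theorem φ0_xx (r : ℕ) (t : F4) : φ0 (xx r t) = xx r (t ^ 2) := by
  unfold xx xN; split_ifs
  exacts [fieldAut_x _ _ _, map_one _]

end CL.CG
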